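import Cfsg.Agent.ThD.Bound
import Cfsg.Agent.ThD.Tabs

set_option autoImplicit false
set_option Elab.async false
set_option maxRecDepth 100000
set_option linter.all false

namespace Cfsg.Agent.ThD
open Cfsg.Agent.CGT

noncomputable def c_l0 : Level := ⟨0, [[0], [2], [4], [6], [8], [10]], [5, 1, 3, 5, 0, 4, 2, 3, 1, 5, 2, 4, 1, 3, 5, 0, 2, 4], 0x3fffffffffffffffffffffffffffffffffffffffffffffffffffffffffffffffffffffffffffffffffffffffffffffffffffffffffffffffffffffffffffffffffffffffffffffffffffffffffffffffffffffffffffffff, 702⟩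
noncomputable def c_l1 : Level := ⟨34, [[0], [2], [4], [6], [8]], [0, 1, 2, 3, 4, 2, 1, 0, 3, 2, 1, 3, 2, 3, 4], 0x327b227a039651e9008da6c225390f103012ded249f1fcec5cb0701fe730c581c001e646c8a18710ce9f03bc99b089fe27e7b3c19906078c0e066001e72c9a783e79be3c6c6007c0c060001b67e3319800c0018c00000000, 288⟩
noncomputable def c_l2 : Level := ⟨6, [[5, 3, 8, 4], [7, 5, 3, 6, 4, 6], [9, 7, 5, 7, 2, 4, 8, 6, 4]], [0, 1, 0, 2, 1, 2, 0, 2], 0x21280008220000180020c000000000000000000000040000000000001000000300000c00000000200000000000000026c108000000000000420000c00000000000400000000080881000000410002100408040, 42⟩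
noncomputable def c_ls : List Level := [c_l0, c_l1, c_l2]
theorem c_l0_ok : (ptsOK 10 [] && (wordsIn [0, 2, 4, 6, 8, 10] c_l0.S && c_l0.ok 10 m_ns m_ts [])) = true := by decide +kernel
theorem c_l1_ok : (ptsOK 10 [0] && (wordsIn [0, 2, 4, 6, 8, 10] c_l1.S && c_l1.ok 10 m_ns m_ts [0])) = true := by decide +kernel
theorem c_l2_ok : (ptsOK 10 [34, 0] && (wordsIn [0, 2, 4, 6, 8, 10] c_l2.S && c_l2.ok 10 m_ns m_ts [34, 0])) = true := by decide +kernel
theorem c_sound {G : Type*} [Group G] {φ : G →* Equiv.Perm ℕ} {γ : ℕ → G}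
    (M : Model φ γ 10 m_ns m_ts) : ChainSound φ (gp γ [0, 2, 4, 6, 8, 10]) 10 [] c_ls :=
  ⟨Level.ok_sound' M c_l0_ok,
   Level.ok_sound' M c_l1_ok,
   Level.ok_sound' M c_l2_ok, trivial⟩
/-- the group -/
abbrev K : Type := PG 6 RR
/-- the generators -/
noncomputable abbrev γ : ℕ → K := pgγ 6 RR
theorem gen_top : gp γ [0, 2, 4, 6, 8, 10] = ⊤ := pg_gen _ (by decide +kernel)
theorem cert : ∃ φ, Cert φ γ 10 m_ns m_ts [0, 2, 4, 6, 8, 10] c_ls := by
  obtain ⟨φ, hφ⟩ := pg_perm (m := 6) (ns := m_ns) rfl m_p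
  have M : Model φ γ 10 m_ns m_ts := ⟨m_v, hφ, m_ts_ok⟩
  exact ⟨φ, Cert.of_bound M gen_top (c_sound M) ((bd0 (pg_holds _ _)).top gen_top) (by decide +kernel)⟩
theorem card_eq : Nat.card K = 8491392 := by
  obtain ⟨φ, C⟩ := cert
  exact C.card.trans (by decide +kernel)

end Cfsg.Agent.ThD
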